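import Mathlib
import Cfsg.Agent.Lib.Helper44.Frob3.Defs

/-!
# S4427 (Frob3) package [A]: `PkgAlg`

Algebra of `ev` and `subgroupSum` in the integral group algebra.
-/

set_option autoImplicit false

namespace Cfsg.Agent.Lib.Helper83.Frob3

open Cfsg.Agent.Lib.Helper44.Frob3

universe u

variable {G : Type u} [Group G]

theorem ev_add (φ : G → ℂ) (S T : MonoidAlgebra ℤ G) : ev φ (S + T) = ev φ S + ev φ T := by
  unfold ev
  rw [MonoidAlgebra.coeff_add, map_add]

theorem ev_zero (φ : G → ℂ) : ev φ (0 : MonoidAlgebra ℤ G) = 0 := by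
  unfold ev
  rw [MonoidAlgebra.coeff_zero, map_zero]

theorem ev_smul (φ : G → ℂ) (z : ℤ) (T : MonoidAlgebra ℤ G) :
    ev φ (z • T) = (z : ℂ) * ev φ T := by
  unfold ev
  rw [MonoidAlgebra.coeff_smul, map_smul, zsmul_eq_mul]

theorem ev_of (φ : G → ℂ) (g : G) : ev φ (MonoidAlgebra.of ℤ G g) = φ g := by
  unfold ev
  rw [MonoidAlgebra.of_apply, MonoidAlgebra.coeff_single, Finsupp.linearCombination_single,
    one_smul]

theorem ev_sum {ι : Type*} (φ : G → ℂ) (s : Finset ι) (f : ι → MonoidAlgebra ℤ G) :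
    ev φ (∑ i ∈ s, f i) = ∑ i ∈ s, ev φ (f i) := by
  classical
  induction s using Finset.induction_on with
  | empty => simp [ev_zero]
  | insert a s ha ih => rw [Finset.sum_insert ha, Finset.sum_insert ha, ev_add, ih]

theorem ev_mul_comm (φ : G → ℂ) (hφ : ∀ g h : G, φ (g * h) = φ (h * g))
    (S T : MonoidAlgebra ℤ G) : ev φ (S * T) = ev φ (T * S) := by
  induction S using MonoidAlgebra.induction_on with
  | of g =>
    induction T using MonoidAlgebra.induction_on with
    | of h => rw [← map_mul, ← map_mul, ev_of, ev_of, hφ]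
    | add x y hx hy => rw [mul_add, add_mul, ev_add, ev_add, hx, hy]
    | smul r x hx => rw [mul_smul_comm, smul_mul_assoc, ev_smul, ev_smul, hx]
  | add x y hx hy => rw [add_mul, mul_add, ev_add, ev_add, hx, hy]
  | smul r x hx => rw [smul_mul_assoc, mul_smul_comm, ev_smul, ev_smul, hx]

theorem subgroupSum_eq (H : Subgroup G) [Fintype H] :
    subgroupSum H = ∑ h : H, MonoidAlgebra.of ℤ G (h : G) := by
  unfold subgroupSum
  exact finsum_eq_sum_of_fintype _

theorem subgroupSum_mul_self [Finite G] (H : Subgroup G) :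
    subgroupSum H * subgroupSum H = (Nat.card H : ℤ) • subgroupSum H := by
  classical
  haveI : Fintype H := Fintype.ofFinite H
  rw [subgroupSum_eq, Finset.sum_mul]
  have h1 : ∀ h : H, MonoidAlgebra.of ℤ G (h : G) * ∑ k : H, MonoidAlgebra.of ℤ G (k : G) =
      ∑ k : H, MonoidAlgebra.of ℤ G (k : G) := by
    intro h
    rw [Finset.mul_sum]
    refine Fintype.sum_equiv (Equiv.mulLeft h) _ _ (fun k => ?_)
    rw [← map_mul]
    rfl
  rw [Finset.sum_congr rfl (fun h _ => h1 h), Finset.sum_const, Finset.card_univ,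
    Nat.card_eq_fintype_card, natCast_zsmul]

theorem subgroupSum_triple [Finite G] (H K : Subgroup G) :
    subgroupSum H * subgroupSum K * subgroupSum H =
      ∑ᶠ i : H × K × H, MonoidAlgebra.of ℤ G ((i.1 : G) * (i.2.1 : G) * (i.2.2 : G)) := by
  classical
  haveI : Fintype H := Fintype.ofFinite H
  haveI : Fintype K := Fintype.ofFinite K
  rw [finsum_eq_sum_of_fintype, subgroupSum_eq H, subgroupSum_eq K, Fintype.sum_prod_type,
    Finset.sum_mul, Finset.sum_mul]
  refine Finset.sum_congr rfl (fun h _ => ?_)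
  rw [Fintype.sum_prod_type]
  have e1 : MonoidAlgebra.of ℤ G (h : G) * ∑ k : K, MonoidAlgebra.of ℤ G (k : G) =
      ∑ k : K, MonoidAlgebra.of ℤ G (h : G) * MonoidAlgebra.of ℤ G (k : G) :=
    Finset.mul_sum _ _ _
  rw [e1, Finset.sum_mul]
  refine Finset.sum_congr rfl (fun k _ => ?_)
  rw [Finset.mul_sum]
  refine Finset.sum_congr rfl (fun h' _ => ?_)
  rw [map_mul, map_mul]

theorem ev_subgroupSum [Finite G] (φ : G → ℂ) (H : Subgroup G) :
    ev φ (subgroupSum H) = ∑ᶠ h : H, φ (h : G) := by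
  classical
  haveI : Fintype H := Fintype.ofFinite H
  rw [subgroupSum_eq, finsum_eq_sum_of_fintype, ev_sum]
  exact Finset.sum_congr rfl (fun h _ => ev_of φ _)

theorem pkgAlg : Cfsg.Agent.Lib.Helper44.Frob3.PkgAlg.{u} := by
  intro G _ _
  exact ⟨ev_add, ev_smul, ev_of, ev_mul_comm, subgroupSum_mul_self, subgroupSum_triple,
    ev_subgroupSum⟩

end Cfsg.Agent.Lib.Helper83.Frob3
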