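import Mathlib
import Cfsg.Agent.Lib.Helper44.Frob3.Defs
import Cfsg.Agent.Lib.Helper83.Frob3.Alg

/-!
# S4427 (Frob3) package [R]: `PkgRep`

Matrix form of an irreducible character on the integral group algebra.
-/

set_option autoImplicit false

namespace Cfsg.Agent.Lib.Helper83.Frob3

open Cfsg.Agent.Lib.Helper44.Frob3

universe u

theorem pkgRep : Cfsg.Agent.Lib.Helper44.Frob3.PkgRep.{u} := by
  intro G _ _ χ
  obtain ⟨n, ρ, -, hρ⟩ := χ.2
  classical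
  obtain ⟨M, hM⟩ : ∃ M : G →* Matrix (Fin n) (Fin n) ℂ, ∀ g, M g = LinearMap.toMatrix' (ρ g) :=
    ⟨(LinearMap.toMatrixAlgEquiv' :
        ((Fin n → ℂ) →ₗ[ℂ] (Fin n → ℂ)) ≃ₐ[ℂ] Matrix (Fin n) (Fin n) ℂ).toAlgHom.toRingHom.toMonoidHom.comp
        ρ, fun g => rfl⟩
  obtain ⟨Φ, hΦ⟩ : ∃ Φ : MonoidAlgebra ℤ G →ₐ[ℤ] Matrix (Fin n) (Fin n) ℂ,
      Φ = MonoidAlgebra.lift ℤ _ G M := ⟨_, rfl⟩
  have htr : ∀ T : MonoidAlgebra ℤ G, (Φ T).trace = ev (χ : G → ℂ) T := by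
    intro T
    induction T using MonoidAlgebra.induction_on with
    | of g =>
      rw [hΦ, MonoidAlgebra.lift_of, ev_of, ← hρ, hM]
      show (LinearMap.toMatrix' (ρ g)).trace = LinearMap.trace ℂ _ (ρ g)
      rw [LinearMap.trace_eq_matrix_trace ℂ (Pi.basisFun ℂ (Fin n)),
        LinearMap.toMatrix_eq_toMatrix']
    | add x y hx hy => rw [map_add, Matrix.trace_add, hx, hy, ev_add]
    | smul r x hx => rw [map_smul, Matrix.trace_smul, hx, ev_smul, zsmul_eq_mul]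
  refine ⟨n, Φ.toRingHom, ?_, ?_⟩
  · intro T
    exact (IsIntegral.of_finite ℤ T).map Φ
  · intro T
    exact htr T

end Cfsg.Agent.Lib.Helper83.Frob3
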